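import Cfsg.Agent.Fi.Q24at0

set_option autoImplicit false
set_option maxRecDepth 100000
set_option Elab.async false

namespace Cfsg.Agent.Fi.Q24a

open Cfsg.Agent.FM Cfsg.Agent.Fi
open Cfsg.Agent.M24 (nall lall)

noncomputable def jss : List (List Job) := [js0, js1, js2, js3, js4, js5, js6, js7, js8, js9, js10, js11, js12]
noncomputable def tops : List CT := [.s2 (.s2 (.lf (nat_lit 0))
 (.lf (nat_lit 1024)))
 (.s2 (.s2 (.s2 (.s2 (.s2 (.s2 (.lf (nat_lit 2048))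
 (.lf (nat_lit 3072)))
 (.lf (nat_lit 3073)))
 (.lf (nat_lit 3074)))
 (.lf (nat_lit 4096)))
 (.lf (nat_lit 4097)))
 (.lf (nat_lit 5120))),
 .lf (nat_lit 6144),
 .lf (nat_lit 7168),
 .lf (nat_lit 8192),
 .lf (nat_lit 9216),
 .lf (nat_lit 9217),
 .lf (nat_lit 10240),
 .lf (nat_lit 10241),
 .lf (nat_lit 11264),
 .lf (nat_lit 11265),
 .lf (nat_lit 11266),
 .lf (nat_lit 12288),
 .lf (nat_lit 12289),
 .lf (nat_lit 12290),
 .lf (nat_lit 12291),
 .lf (nat_lit 12292),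
 .lf (nat_lit 12293),
 .lf (nat_lit 12294),
 .lf (nat_lit 12295),
 .lf (nat_lit 12296),
 .lf (nat_lit 12297),
 .lf (nat_lit 12298)]
theorem htop : topChk 2 22 T pb jss tops = true := by decide +kernel
theorem hjs : ∀ js ∈ jss, jobsChk 2 22 T pb (lf2 F24.cd om T gb 22 4) js = true := by
  simp only [jss, List.forall_mem_cons, List.not_mem_nil, false_imp_iff, implies_true, and_true]
  exact ⟨hj0, hj1, hj2, hj3, hj4, hj5, hj6, hj7, hj8, hj9, hj10, hj11, hj12⟩

end Cfsg.Agent.Fi.Q24a
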