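import Cfsg.Agent.Fi.Q23at0

set_option autoImplicit false
set_option maxRecDepth 100000
set_option Elab.async false

namespace Cfsg.Agent.Fi.Q23a

open Cfsg.Agent.FM Cfsg.Agent.Fi
open Cfsg.Agent.M24 (nall lall)

noncomputable def jss : List (List Job) := [js0, js1, js2]
noncomputable def tops : List CT := [.lf (nat_lit 0),
 .lf (nat_lit 1),
 .lf (nat_lit 1024),
 .lf (nat_lit 1025),
 .lf (nat_lit 1026),
 .lf (nat_lit 1027),
 .lf (nat_lit 1028),
 .lf (nat_lit 2048),
 .lf (nat_lit 2049),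
 .lf (nat_lit 2050),
 .lf (nat_lit 2051),
 .lf (nat_lit 2052),
 .lf (nat_lit 2053),
 .lf (nat_lit 2054),
 .lf (nat_lit 2055),
 .lf (nat_lit 2056),
 .lf (nat_lit 2057),
 .lf (nat_lit 2058)]
theorem htop : topChk 2 18 T pb jss tops = true := by decide +kernel
theorem hjs : ∀ js ∈ jss, jobsChk 2 18 T pb (lf2 F23.cd om T gb 18 3) js = true := by
  simp only [jss, List.forall_mem_cons, List.not_mem_nil, false_imp_iff, implies_true, and_true]
  exact ⟨hj0, hj1, hj2⟩

end Cfsg.Agent.Fi.Q23a
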